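import Cfsg.Agent.Lib.Chev.Abstract.Present

/-! Perfectness of groups with Steinberg relations; the centre for unimodular types. -/
set_option autoImplicit false
set_option maxRecDepth 100000
open Cfsg.Lie
open scoped Matrix MatrixGroups commutatorElement

namespace CfsgLib.Chev.Abstract

open CfsgLib.Chev CfsgLib.Chev.Checks CfsgLib.Chev.Basic

variable {D : ChevalleyDatum} {F : Type*} [Field F] {hD : D ∈ dataList} {G : Type*} [Group G]

namespace Sys

variable (S : Sys hD F G)

theorem mem_of_scaled {i r : ℕ} (hi : i < D.rank) (hr : r < D.nroots) {c : F} (hc : c ≠ 0)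
    (h1 : c ^ D.cartan i r ≠ 1) (t : F) : S.X r t ∈ commutator G := by
  have hne : c ^ D.cartan i r - 1 ≠ 0 := sub_ne_zero.2 h1
  set u := t / (c ^ D.cartan i r - 1) with hu
  have key : S.X r t = ⁅S.h (D.simple i) c, S.X r u⁆ := by
    rw [commutatorElement_def, S.h_conj hi hr hc, S.X_inv hr, S.add r hr]
    congr 1
    rw [hu]; field_simp; ring
  rw [key, commutator_def]
  exact Subgroup.commutator_mem_commutator (Subgroup.mem_top _) (Subgroup.mem_top _)

theorem mem_of_pair {r s p : ℕ} {M : ℤ} (hr : r < D.nroots) (hs : s < D.nroots)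
    (hne : s ≠ r) (hneg : s ≠ D.neg r) (hT : D.commTerms r s = [(p, M, 1, 1)]) (hM : (M : F) ≠ 0) (t : F) :
    S.X p t ∈ commutator G := by
  have e := S.comm r s hr hs hne hneg (-t / M) 1
  have hw : ((D.commWord F r s (-t / M) 1).map fun q => S.X q.1 q.2).prod = S.X p t := by
    simp only [ChevalleyDatum.commWord, hT, List.map_cons, List.map_nil, List.prod_cons, List.prod_nil,
      mul_one, pow_one]
    congr 1
    field_simp
  rw [hw] at e
  have key : S.X p t = ⁅(S.X s 1)⁻¹, (S.X r (-t / M))⁻¹⁆ := by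
    rw [commutatorElement_def, inv_inv, inv_inv, mul_assoc _ (S.X s 1), e]; group
  rw [key, commutator_def]
  exact Subgroup.commutator_mem_commutator (Subgroup.mem_top _) (Subgroup.mem_top _)

theorem perfect_of_base (hgen : S.Gen) (hbase : ∀ a < D.rank, ∀ t : F, S.X (D.simple a) t ∈ commutator G) :
    commutator G = ⊤ := by
  rw [eq_top_iff, ← hgen]
  refine (Subgroup.closure_le _).2 ?_
  rintro _ ⟨r, t, hr, rfl⟩
  revert t
  refine Rel.root_induction hD (P := fun r => ∀ t : F, S.X r t ∈ commutator G) hbase (fun i r hi hr ih t => ?_) hr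
  rw [show S.X r t = (S.ni i)⁻¹ * (S.ni i * S.X r t * (S.ni i)⁻¹) * (S.ni i)⁻¹⁻¹ by group, S.n_conj hi hr]
  exact (inferInstance : (commutator G).Normal).conj_mem _ (ih _) _

theorem perfect_big (hgen : S.Gen) (hb : D ∈ [chevD4, chevF4, chevE6, chevE7, chevE8]) : commutator G = ⊤ := by
  obtain ⟨L, hL⟩ := Simple.exists_pairs hb
  refine S.perfect_of_base hgen fun a ha t => ?_
  simp only [Simple.pairOK, List.all_eq_true, List.mem_range, Bool.and_eq_true, Bool.or_eq_true, decide_eq_true_eq,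
    bne_iff_ne, beq_iff_eq] at hL
  obtain ⟨⟨⟨⟨h1, h2⟩, h3⟩, h4⟩, h5⟩ := hL a ha
  rcases h5 with h5 | h5
  · exact S.mem_of_pair h1 h2 h3 h4 h5 (by simp) t
  · exact S.mem_of_pair h1 h2 h3 h4 h5 (by simp) t

theorem perfect_small (hgen : S.Gen) (hs : D = chevG2 ∨ D = chevB2) (hF : ∃ a : F, a ≠ 0 ∧ a ≠ 1) :
    commutator G = ⊤ := by
  obtain ⟨c, hc0, hc1⟩ := hF
  refine S.perfect_of_base hgen fun a ha t => ?_
  by_cases hc2 : c ^ 2 = 1
  · have hm : c = -1 := by
      rcases sq_eq_one_iff.1 hc2 with h | h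
      exacts [absurd h hc1, h]
    subst hm
    have h2 : (2 : F) ≠ 0 := fun h => hc1 (by linear_combination -h)
    rcases hs with rfl | rfl
    · have hoo : Odd (chevG2.cartan (1 - a) (chevG2.simple a)) := by
        replace ha : a < 2 := ha
        interval_cases a <;> decide +kernel
      refine S.mem_of_scaled (i := 1 - a) (show 1 - a < 2 by omega) (Rel.simple_lt hD ha) hc0 ?_ t
      rw [hoo.neg_one_zpow]; exact hc1
    · replace ha : a < 2 := ha
      interval_cases a
      · have hoo : Odd (chevB2.cartan 1 (chevB2.simple 0)) := by decide +kernel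
        refine S.mem_of_scaled (i := 1) (show 1 < 2 by norm_num) (Rel.simple_lt hD (show 0 < 2 by norm_num)) hc0 ?_ t
        rw [hoo.neg_one_zpow]; exact hc1
      · obtain ⟨M, hM, hT⟩ : ∃ M : ℤ, (M = 2 ∨ M = -2) ∧ chevB2.commTerms 2 6 = [(chevB2.simple 1, M, 1, 1)] := by
          first
            | exact ⟨2, Or.inl rfl, by decide +kernel⟩
            | exact ⟨-2, Or.inr rfl, by decide +kernel⟩
        refine S.mem_of_pair (r := 2) (s := 6) (by decide) (by decide) (by decide) (by decide +kernel) hT ?_ t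
        rcases hM with rfl | rfl <;> simpa using h2
  · refine S.mem_of_scaled (i := a) ha (Rel.simple_lt hD ha) hc0 ?_ t
    rw [(Rel.refl hD ha).cartan_p]; exact_mod_cast hc2

theorem ker_trivial (hgen : S.Gen)
    (hR3 : ∀ i, i < D.rank → ∀ t u : F, t ≠ 0 → u ≠ 0 → S.h (D.simple i) t * S.h (D.simple i) u = S.h (D.simple i) (t * u))
    (hinj : Function.Injective (Torus.torusHom D F)) : S.θ.ker = ⊥ := by
  have hc : ∀ i j : ℕ, i < D.rank → j < D.rank → ∀ c t : F, c ≠ 0 → t ≠ 0 →
      S.h (D.simple j) c * S.h (D.simple i) t = S.h (D.simple i) t * S.h (D.simple j) c := by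
    intro i j hi hj c t hc0 ht
    have hp := Rel.simple_lt hD hi
    set a := c ^ D.cartan j (D.simple i) with ha
    have ha0 : a ≠ 0 := zpow_ne_zero _ hc0
    have hn : ∀ x : F, S.h (D.simple j) c * S.n (D.simple i) x * (S.h (D.simple j) c)⁻¹ = S.n (D.simple i) (a * x) := by
      intro x
      have h1 := S.h_conj hj hp hc0 x
      have h2 := S.h_conj hj (Checks.neg_lt hD hp) hc0 (-x⁻¹)
      rw [Weight.cartan_neg hD hj hp, zpow_neg, mul_neg, ← mul_inv] at h2
      rw [Sys.n, show S.h (D.simple j) c * (S.X (D.simple i) x * S.X (D.neg (D.simple i)) (-x⁻¹) * S.X (D.simple i) x) *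
          (S.h (D.simple j) c)⁻¹ = (S.h (D.simple j) c * S.X (D.simple i) x * (S.h (D.simple j) c)⁻¹) *
          (S.h (D.simple j) c * S.X (D.neg (D.simple i)) (-x⁻¹) * (S.h (D.simple j) c)⁻¹) *
          (S.h (D.simple j) c * S.X (D.simple i) x * (S.h (D.simple j) c)⁻¹) by group, h1, h2, Sys.n]
    have e : S.h (D.simple j) c * S.h (D.simple i) t * (S.h (D.simple j) c)⁻¹ = S.h (D.simple i) t := by
      calc S.h (D.simple j) c * S.h (D.simple i) t * (S.h (D.simple j) c)⁻¹
          = (S.h (D.simple j) c * S.n (D.simple i) t * (S.h (D.simple j) c)⁻¹) *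
            (S.h (D.simple j) c * S.n (D.simple i) (-1) * (S.h (D.simple j) c)⁻¹) := by rw [Sys.h.eq_def S (D.simple i) t]; group
        _ = S.h (D.simple i) (a * t) * (S.h (D.simple i) a)⁻¹ := by
            rw [hn, hn, mul_neg, mul_one, Sys.h, Sys.h, S.n_neg hp]; group
        _ = _ := by rw [mul_comm a t, ← hR3 i hi t a ht ha0]; group
    calc S.h (D.simple j) c * S.h (D.simple i) t
        = (S.h (D.simple j) c * S.h (D.simple i) t * (S.h (D.simple j) c)⁻¹) * S.h (D.simple j) c := by group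
      _ = _ := by rw [e]
  let f : (i : Fin D.rank) → Fˣ →* G := fun i =>
    MonoidHom.mk' (fun t : Fˣ => S.h (D.simple i) t) fun t u => by
      rw [Units.val_mul]; exact (hR3 i i.2 t u t.ne_zero u.ne_zero).symm
  let φ := MonoidHom.noncommPiCoprod f (fun i j _ x y => hc j i j.2 i.2 x y x.ne_zero y.ne_zero)
  have hφθ : S.θ.comp φ = Torus.torusHom D F := by
    refine MonoidHom.pi_ext fun i t => ?_
    rw [MonoidHom.comp_apply, Torus.torus_simple hD]
    erw [MonoidHom.noncommPiCoprod_mulSingle]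
    exact S.θ_h (Rel.simple_lt hD i.2) t
  have hle : S.Hbar ≤ φ.range := (Subgroup.closure_le _).2 (by
    rintro g ⟨i, t, hi, ht, rfl⟩
    exact ⟨Pi.mulSingle ⟨i, hi⟩ (Units.mk0 t ht), MonoidHom.noncommPiCoprod_mulSingle _ _ _⟩)
  rw [eq_bot_iff]
  intro g hg
  obtain ⟨c, rfl⟩ := hle (S.ker_le_Hbar hgen hg)
  have : Torus.torusHom D F c = 1 := by rw [← hφθ]; exact hg
  rw [Subgroup.mem_bot, hinj (this.trans (map_one _).symm), map_one]

end Sys

/-- injectivity of the torus map from an inverse of the Cartan matrix -/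
theorem torus_injective (hD : D ∈ dataList) (C' : Matrix (Fin D.rank) (Fin D.rank) ℤ)
    (h : (Matrix.of fun i j : Fin D.rank => D.cartan i (D.simple j)) * C' = 1) :
    Function.Injective (Torus.torusHom D F) := by
  rw [injective_iff_map_eq_one]
  intro c hc
  have e := (Torus.torusKer_iff hD c).1 hc
  have := congrArg (Torus.pw (G := Fˣ) C') e
  erw [← Torus.pw_mul (Matrix.of fun i j : Fin D.rank => D.cartan i (D.simple j)) C'] at this
  rwa [map_one, h, Torus.pw_one] at this

open Torus in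
theorem torus_injective_G2 : Function.Injective (Torus.torusHom chevG2 F) :=
  torus_injective (D := chevG2) (by simp [dataList])
    (mk 2 [[1, 2], [0, 1]] * mk 2 [[0, -1], [1, 2]]) (by decide +kernel)

open Torus in
theorem torus_injective_F4 : Function.Injective (Torus.torusHom chevF4 F) :=
  torus_injective (D := chevF4) (by simp [dataList])
    (mk 4 [[0, 0, 1, -2], [1, 0, 2, -4], [0, 0, 2, -3], [0, 1, 2, -2]] *
      mk 4 [[-1, 0, 0, 0], [1, 0, -1, 0], [-2, -1, 0, 0], [-2, -2, -2, -1]]) (by decide +kernel)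

open Torus in
theorem torus_injective_E8 : Function.Injective (Torus.torusHom chevE8 F) :=
  torus_injective (D := chevE8) (by simp [dataList])
    (mk 8 [[0, 0, 0, 0, 0, 0, 1, -2], [0, 0, 0, 0, 0, 0, 2, -3], [1, 0, 0, 0, 0, 0, 2, -4], [0, 1, 0, 0, 0, 0, 4, -6],
        [0, 0, 1, 0, 0, 0, 4, -5], [0, 0, 0, 1, 0, 0, 4, -4], [0, 0, 0, 0, 1, 0, 4, -3], [0, 0, 0, 0, 0, 1, 4, -2]] *
      mk 8 [[-1, 0, 0, 0, 0, 0, 0, 0], [0, -1, 0, 0, 0, 0, 0, 0], [1, -2, 0, -1, 0, 0, 0, 0], [2, -3, 0, -2, -1, 0, 0, 0],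
        [3, -4, 0, -3, -2, -1, 0, 0], [4, -5, 0, -4, -3, -2, -1, 0], [-2, 1, -1, 0, 0, 0, 0, 0],
        [-3, -2, -4, -5, -4, -3, -2, -1]]) (by decide +kernel)

end CfsgLib.Chev.Abstract
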